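import Cfsg.Prelude.Def_Transfer
import Cfsg.Agent.H490.AutRank
import Cfsg.Agent.Lib.Cores
set_option linter.all false

/-!
# Burnside's transfer theorem with the rank of an abelian Sylow subgroup
-/

set_option autoImplicit false

namespace Cfsg.Agent.H490.BurnsideRank

/-- If the Sylow `p`-subgroup `P` is abelian and no prime divisor of `|G|` divides `p ^ j - 1` for
`1 ≤ j ≤ rank P`, then `G` has a normal `p`-complement. -/
theorem hasNormalPComplement {G : Type*} [Group G] [Finite G] {p : ℕ} [hp : Fact p.Prime]
    (P : Sylow p G) (hab : IsMulCommutative (P : Subgroup G))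
    (h : ∀ r : ℕ, r.Prime → r ∣ Nat.card G → ∀ j, 1 ≤ j → j ≤ Group.rank (P : Subgroup G) →
      ¬ r ∣ p ^ j - 1) : Cfsg.HasNormalPComplement p G := by
  have hNC : Subgroup.normalizer ((P : Subgroup G) : Set G) ≤
      Subgroup.centralizer ((P : Subgroup G) : Set G) := by
    rw [← Subgroup.subgroupOf_eq_top]
    refine Cfsg.Agent.Lib.Cores.eq_top_of_sylow_le fun q hq => ?_
    by_cases hqp : q = p
    · subst hqp
      refine ⟨P.subtype Subgroup.le_normalizer, ?_⟩
      intro x hx
      rw [Subgroup.mem_subgroupOf, Subgroup.mem_centralizer_iff]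
      have hx' : (x : G) ∈ (P : Subgroup G) := hx
      intro y hy
      have := hab.is_comm.comm (⟨y, hy⟩ : (P : Subgroup G)) ⟨x, hx'⟩
      exact congrArg Subtype.val this
    · refine ⟨default, ?_⟩
      intro x hx
      rw [Subgroup.mem_subgroupOf]
      by_contra hxC
      have hcop : (orderOf (x : G)).Coprime p := by
        rw [Subgroup.orderOf_coe]
        set Q : Sylow q (Subgroup.normalizer ((P : Subgroup G) : Set G)) := default
        obtain ⟨k, hk⟩ := (IsPGroup.iff_orderOf.mp Q.2) ⟨x, hx⟩
        have hk' : orderOf x = q ^ k := by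
          rw [← hk]
          exact (Subgroup.orderOf_mk x hx).symm
        rw [hk']
        exact Nat.Coprime.pow_left k ((Nat.coprime_primes hq.out hp.out).mpr hqp)
      obtain ⟨T, hTc, hT⟩ := Group.rank_spec (P : Subgroup G)
      obtain ⟨r, hr, hrx, j, hj1, hjd, hj⟩ := AutRank.exists_prime_of_normalizer (P : Subgroup G)
        P.2 T hT hTc.le (x : G) x.2 hcop hxC
      exact h r hr (hrx.trans (orderOf_dvd_natCard _)) j hj1 hjd hj
  exact ⟨P, _, inferInstance, MonoidHom.ker_transferSylow_isComplement' P hNC⟩

end Cfsg.Agent.H490.BurnsideRank
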